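import Cfsg.Agent.Lib.MatConj.WallUnip
import Cfsg.Agent.Lib.MatConj.SemiCount
import Cfsg.Agent.Lib.Unitary.Order

/-!
# Orders of centralisers in unitary groups
-/

set_option autoImplicit false

namespace CfsgLib.MatConj

open Matrix Finset

/-- The order of the general unitary group as an integer. -/
theorem card_GU_int {K : Type*} [Field K] [Fintype K] {q : ℕ} (hK : Fintype.card K = q ^ 2) (n : ℕ) :
    (Nat.card (Cfsg.GU n K q) : ℤ) =
      (q : ℤ) ^ (n * (n - 1) / 2) * ∏ i : Fin n, ((q : ℤ) ^ (i.1 + 1) - (-1) ^ (i.1 + 1)) := by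
  rw [Unitary.card_GU hK, Fin.prod_univ_eq_prod_range fun i => (q : ℤ) ^ (i + 1) - (-1) ^ (i + 1)]
  push_cast
  congr 1
  refine prod_congr rfl fun i _ => ?_
  split_ifs with h
  · simp [pow_succ, h.neg_one_pow]
  · rw [Nat.cast_sub (Nat.one_le_pow _ _ (Nat.pos_of_ne_zero (Unitary.q_ne_zero hK)))]
    simp [pow_succ, (Nat.not_even_iff_odd.1 h).neg_one_pow]

/-- The units commuting with an element. -/
def centU {R : Type*} [Monoid R] (A : R) : Subgroup Rˣ where
  carrier := {g | Commute g.1 A}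
  mul_mem' ha hb := Commute.mul_left ha hb
  one_mem' := Commute.one_left A
  inv_mem' h := Commute.units_inv_left h

theorem card_commute_eq_mul {R : Type*} [Ring R] [Finite R] [StarRing R] {A ω : R}
    (hA : star A * A = 1) (hω : ω + star ω = 1) (hδ : IsUnit (2 * ω - 1))
    (hc : ∀ y, Commute y A → Commute ω y) : Nat.card {g : Rˣ // Commute g.1 A} =
      Nat.card {g : Rˣ // Commute g.1 A ∧ star g.1 * g.1 = 1} *
        Nat.card {h : R // star A * h * A = h ∧ star h = h ∧ IsUnit h} := by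
  have hA' : A * star A = 1 := mul_eq_one_comm.1 hA
  let f : centU A → {h : R // star A * h * A = h ∧ star h = h ∧ IsUnit h} := fun c =>
    ⟨star c.1.1 * c.1.1, by
      rw [← mul_assoc, ← star_mul, mul_assoc, (show Commute c.1.1 A from c.2).eq, star_mul,
        mul_assoc, ← mul_assoc (star A), hA, one_mul], by simp, c.1.isUnit.star.mul c.1.isUnit⟩
  have key : ∀ a b : Rˣ, star a.1 * a = star b.1 * b ↔ star (b * a⁻¹).1 * (b * a⁻¹).1 = 1 :=
    fun a b => by
      rw [Units.val_mul, star_mul, mul_assoc, ← mul_assoc (star b.1),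
        ← a.isUnit.star.mul_right_inj (c := 1), ← mul_assoc (star a.1), ← star_mul,
        Units.inv_mul, star_one, one_mul, mul_one, Units.mul_inv_eq_iff_eq_mul, eq_comm]
  let U : Subgroup (centU A) :=
    { carrier := {g | star g.1.1 * g.1.1 = 1}
      mul_mem' := fun {a b} ha hb => by
        simpa using (key b⁻¹ a).1 (ha.symm ▸ by simpa using (key b 1).1 (by simpa using hb))
      one_mem' := by simp
      inv_mem' := fun {a} ha => by simpa using (key a 1).1 (by simpa using ha) }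
  refine (card_eq_mul_of_fiber U f (fun ⟨h, h1, h2, h3⟩ => ?_)
    fun a b => Subtype.ext_iff.trans (key a b)).trans (congrArg (· * _) (Nat.card_congr
      (Equiv.subtypeSubtypeEquivSubtypeInter _ fun g : Rˣ => star g.1 * g.1 = 1)))
  have h4 : Commute h A := by
    rw [Commute, SemiconjBy, ← one_mul (h * A), ← hA', mul_assoc, ← mul_assoc (star A), h1]
  obtain ⟨c, h5, h6⟩ := exists_star_mul_self hω hδ h2 h3 (hc h h4)
  exact ⟨⟨c, (h6 A (hc A rfl) h4).symm⟩, Subtype.ext h5⟩

variable {K : Type*} [Field K] [StarRing K] {n m : Type*} [Fintype n] [DecidableEq n] [Fintype m]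
  [DecidableEq m]

/-- The invariant nondegenerate Hermitian forms. -/
abbrev HermInv (A : Matrix n n K) : Type _ := {h : Matrix n n K // Aᴴ * h * A = h ∧ hᴴ = h ∧ IsUnit h}

theorem card_hermInv_le [Finite K] {A : Matrix n n K} {M : Matrix m m K} {P : Matrix n m K}
    {P' : Matrix m n K} (h1 : P * P' = 1) (h2 : P' * P = 1) (h3 : A * P = P * M) :
    Nat.card (HermInv A) ≤ Nat.card (HermInv M) := by
  refine Nat.card_le_card_of_injective (fun h => ⟨Pᴴ * h.1 * P, ?_, ?_, ?_⟩) fun h h' hh => ?_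
  · rw [Matrix.mul_assoc, Matrix.mul_assoc, ← h3, ← Matrix.mul_assoc, ← Matrix.mul_assoc,
      ← Matrix.mul_assoc, ← conjTranspose_mul, ← h3, conjTranspose_mul]
    conv_rhs => rw [← h.2.1]
    simp only [Matrix.mul_assoc]
  · simp [h.2.2.1, Matrix.mul_assoc]
  · obtain ⟨u, hu⟩ := h.2.2.2
    refine IsUnit.of_mul_eq_one (P' * u⁻¹.1 * P'ᴴ) ?_
    rw [← hu, Matrix.mul_assoc, Matrix.mul_assoc P', ← Matrix.mul_assoc P, h1, Matrix.one_mul,
      Matrix.mul_assoc, ← Matrix.mul_assoc u.1, u.mul_inv, Matrix.one_mul, ← conjTranspose_mul, h2,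
      conjTranspose_one]
  · have h4 : ∀ x : Matrix n n K, P'ᴴ * (Pᴴ * x * P) * P' = x := fun x => by
      rw [← Matrix.mul_assoc, ← Matrix.mul_assoc, ← conjTranspose_mul, Matrix.mul_assoc, h1]; simp
    exact Subtype.ext (by rw [← h4 h.1, ← h4 h'.1]; exact congrArg (P'ᴴ * ·.1 * P') hh)

theorem card_hermInv_eq [Finite K] {A : Matrix n n K} {M : Matrix m m K} (h : edM A = edM M) :
    Nat.card (HermInv A) = Nat.card (HermInv M) := by
  obtain ⟨-, P, P', h1, h2, h3, -⟩ := exists_transp h 0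
  obtain ⟨-, Q, Q', h4, h5, h6, -⟩ := exists_transp h.symm 0
  exact (card_hermInv_le h1 h2 h3).antisymm (card_hermInv_le h4 h5 h6)

variable (hK : ∃ z : K, star z ≠ z) {T : Type*} [Fintype T] [DecidableEq T] {d : T → ℕ}

theorem conjTranspose_jm : (jm d K)ᴴ = (jm d K)ᵀ := by
  have := jm_sub_one_pow_apply (F := K) (d := d) 1
  ext p p'
  simp only [pow_one, Matrix.sub_apply, sub_eq_iff_eq_add] at this
  simp [this, one_apply, apply_ite star]

theorem jform_conjTranspose {G : Matrix (JI d) (JI d) K} (hG : (jm d K)ᵀ * G * jm d K = G) (i : ℕ) :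
    (jm d K)ᵀ * Gᴴ * jm d K = Gᴴ ∧ jform d Gᴴ i = (-1 : K) ^ i • (jform d G i)ᴴ := by
  refine ⟨?_, ?_⟩
  · conv_rhs => rw [← hG, ← conjTranspose_jm, conjTranspose_mul, conjTranspose_mul]
    rw [conjTranspose_conjTranspose, conjTranspose_jm, Matrix.mul_assoc]
  · have := congrArg (·.map star) (jform_transpose hG i)
    refine this.trans ?_
    ext a b
    simp

include hK in
theorem card_sign_herm (i : ℕ) : Nat.card {H : Matrix n n K // Hᴴ = (-1 : K) ^ i • H ∧ IsUnit H} =
    Nat.card (HermInv (1 : Matrix n n K)) := by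
  rcases i.even_or_odd with h | h
  · simp [HermInv, h.neg_one_pow]
  obtain ⟨ω, h1, h2⟩ := exists_omega hK
  have h3 : star (2 * ω - 1) = -(2 * ω - 1) := by
    rw [star_sub, star_mul, star_one, star_ofNat]; linear_combination 2 * h1
  refine Nat.card_congr ((MulAction.toPerm (Units.mk0 _ h2)).subtypeEquiv fun H => ?_)
  change _ ↔ _ ∧ ((2 * ω - 1) • H)ᴴ = (2 * ω - 1) • H ∧ IsUnit ((2 * ω - 1) • H)
  rw [conjTranspose_smul, h3, neg_smul, ← smul_neg, smul_right_inj h2, h.neg_one_pow,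
    neg_eq_iff_eq_neg, isUnit_iff_isUnit_det, isUnit_iff_isUnit_det]
  simp [h2]

include hK in
theorem card_hermInv_jm [Finite K] {M : ℕ} (hM : ∀ t, d t < M) : ∃ c, c ^ 2 =
    Nat.card (jrhoHom K d M).ker ∧ Nat.card (HermInv (jm d K)) =
      c * ∏ i : Fin M, Nat.card (HermInv (1 : Matrix {s // d s = i} {s // d s = i} K)) := by
  obtain ⟨R, h3, h4⟩ := exists_inv_of_unipotent (jt_jm (F := K) d).1
  have hR : ∀ x, Commute x (jm d K) → (jm d K)ᵀ * (R * x) * jm d K = R * x := fun x h5 => by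
    rw [mul_assoc, mul_assoc, h5.eq, ← mul_assoc, ← mul_assoc, h3]
  let V : AddSubgroup (Matrix (JI d) (JI d) K) :=
    { carrier := {G | (jm d K)ᵀ * G * jm d K = G ∧ Gᴴ = G}
      add_mem' := fun ha hb => by simp [mul_add, add_mul, ha.1, ha.2, hb.1, hb.2]
      zero_mem' := by simp
      neg_mem' := fun ha => by simp [ha.1, ha.2] }
  let S : ∀ i : Fin M, AddSubgroup (Matrix {s // d s = i} {s // d s = i} K) := fun i =>
    { carrier := {H | Hᴴ = (-1 : K) ^ i.1 • H}
      add_mem' := fun {a b} (ha : _ = _) (hb : _ = _) => by simp [ha, hb]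
      zero_mem' := by simp
      neg_mem' := fun {a} (ha : _ = _) => by simp [ha] }
  let Φ : V →+ ∀ i, S i :=
    { toFun := fun G i => ⟨jform d G.1 i, by
        change _ = _
        conv_rhs => rw [← G.2.2, (jform_conjTranspose G.2.1 i).2, smul_smul, ← mul_pow]
        simp⟩
      map_zero' := rfl
      map_add' := fun _ _ => rfl }
  have hΦ : Function.Surjective Φ := fun H => by
    obtain ⟨x, hx⟩ := jrhoHom_surjective (F := K) (d := d) M fun i => (jform d R i)⁻¹ * (H i).1
    obtain ⟨ω, h1, -⟩ := exists_omega hK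
    have h7 := hR x (mem_centralizer_jm.1 x.2)
    have h6 : ∀ i : Fin M, jform d (R * x.1) i = (H i).1 := fun i => by
      rw [jform_mul h3 (mem_centralizer_jm.1 x.2), ← jrhoHom_apply, hx,
        mul_inv_mul_cancel (det_jform_ne_zero h3 h4 _)]
    generalize R * x.1 = G at h6 h7
    refine ⟨⟨ω • G + star ω • Gᴴ, ?_, by simp [add_comm]⟩, funext fun i => Subtype.ext ?_⟩
    · simp [mul_add, add_mul, h7, (jform_conjTranspose h7 0).1]
    · change ω • jform d G i + star ω • jform d Gᴴ i = _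
      rw [(jform_conjTranspose h7 i).2, h6, (H i).2, smul_smul ((-1 : K) ^ i.1), ← mul_pow]
      simp [← add_smul, h1]
  let W : Submodule K (Matrix (JI d) (JI d) K) :=
    { carrier := {G | (jm d K)ᵀ * G * jm d K = G ∧ ∀ i : Fin M, jform d G i = 0}
      add_mem' := fun ha hb => ⟨by simp [mul_add, add_mul, ha.1, hb.1],
        fun i => (congrArg₂ (· + ·) (ha.2 i) (hb.2 i)).trans (add_zero _)⟩
      zero_mem' := ⟨by simp, fun _ => rfl⟩
      smul_mem' := fun c a ha => ⟨by simp [ha.1],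
        fun i => (congrArg (c • ·) (ha.2 i)).trans (smul_zero _)⟩ }
  have hW := card_fixed_semilinear hK (W := W)
    { toFun := fun G => ⟨G.1ᴴ, (jform_conjTranspose G.2.1 0).1, fun i => by
        rw [(jform_conjTranspose G.2.1 i).2, G.2.2]; simp⟩
      map_zero' := by simp
      map_add' := fun _ _ => Subtype.ext (conjTranspose_add _ _) } (fun _ => by simp) fun _ _ => Subtype.ext (conjTranspose_smul _ _)
  refine ⟨Nat.card Φ.ker, ?_, ?_⟩
  · refine (congrArg (· ^ 2) (Nat.card_congr ⟨fun G => ⟨⟨G.1.1, G.1.2.1, fun i => congrArg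
      Subtype.val (congrFun G.2 i)⟩, Subtype.ext G.1.2.2⟩, fun G => ⟨⟨G.1.1, G.1.2.1,
      congrArg Subtype.val G.2⟩, funext fun i => Subtype.ext (G.1.2.2 i)⟩, fun _ => rfl,
      fun _ => rfl⟩)).trans (hW.trans (Nat.card_congr (Equiv.ofBijective (fun x => ⟨R * x.1.1,
        hR _ (mem_centralizer_jm.1 x.1.2), fun i => by
          rw [jform_mul h3 (mem_centralizer_jm.1 x.1.2), ← jrhoHom_apply, x.2, Pi.zero_apply,
            mul_zero]⟩) ⟨fun x y h => ?_, fun G => ?_⟩).symm))
    · exact Subtype.ext (Subtype.ext (((isUnit_iff_isUnit_det _).2 h4.isUnit).mul_left_cancel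
        (congrArg Subtype.val h)))
    · refine ⟨⟨⟨_, mem_centralizer_jm.2 (commute_inv_mul h3 G.2.1 h4)⟩, funext fun i => ?_⟩,
        Subtype.ext (mul_inv_mul_cancel h4 _)⟩
      refine ((isUnit_iff_isUnit_det _).2 (det_jform_ne_zero h3 h4 i).isUnit).mul_left_cancel ?_
      rw [jrhoHom_apply, ← jform_eq_mul h3 G.2.1 h4, G.2.2, Pi.zero_apply, mul_zero]
  · have h := card_preimage_addHom Φ hΦ fun H => ∀ i, IsUnit (H i).1
    rw [Nat.card_congr (Equiv.subtypePiEquivPi (p := fun (i : Fin M) (H : S i) => IsUnit H.1)),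
      Nat.card_pi] at h
    rw [← prod_congr rfl fun i _ => (Nat.card_congr (Equiv.subtypeSubtypeEquivSubtypeInter
      (· ∈ S i) IsUnit)).trans (card_sign_herm hK i), ← h]
    have h1 : ∀ G : V, (∀ i, IsUnit (Φ G i).1) ↔ IsUnit G.1 := fun G => by
      refine (forall_fin_of_lt hM (P := fun i => IsUnit (jform d G.1 i))
        fun _ _ => isUnit_of_subsingleton _).trans ?_
      simp only [isUnit_iff_isUnit_det, isUnit_iff_ne_zero]
      exact ⟨det_ne_zero_of_jform h3 G.2.1 h4, det_jform_ne_zero G.2.1⟩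
    exact Nat.card_congr ⟨fun G => ⟨⟨G.1, conjTranspose_jm (K := K) (d := d) ▸ G.2.1, G.2.2.1⟩,
      (h1 _).2 G.2.2.2⟩, fun G => ⟨G.1.1, conjTranspose_jm (K := K) (d := d) ▸ G.1.2.1, G.1.2.2,
      (h1 _).1 G.2⟩, fun _ => rfl, fun _ => rfl⟩

include hK in
theorem card_GL_commute_eq_mul [Finite K] {A : Matrix n n K} (hA : Aᴴ * A = 1) :
    Nat.card {g : GL n K // Commute g.1 A} =
      Nat.card {g : GL n K // Commute g.1 A ∧ g.1ᴴ * g.1 = 1} * Nat.card (HermInv A) := by
  obtain ⟨ω, h1, h2, h3⟩ := exists_omega_matrix (n := n) hK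
  exact card_commute_eq_mul hA h1 h2 fun y _ => h3 y

include hK in
/-- The order of the centraliser of a unipotent unitary matrix. -/
theorem card_unitary_commute [Finite K] {A : Matrix n n K} (hA : Aᴴ * A = 1)
    (h : edM A = edM (jm d K)) {M : ℕ} (hM : ∀ t, d t < M) :
    ∃ c, c ^ 2 = Nat.card K ^ jexp (fun t => d t + 1) (M + 1) ∧
      Nat.card {g : GL n K // Commute g.1 A ∧ g.1ᴴ * g.1 = 1} =
        c * ∏ i : Fin M, Nat.card {g : GL (Fin #{s | d s = i}) K // g.1ᴴ * g.1 = 1} := by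
  obtain ⟨c, h1, h2⟩ := card_hermInv_jm hK hM
  refine ⟨c, h1.trans (card_ker_jrhoHom_eq hM), ?_⟩
  have h3 := card_GL_commute_eq_mul hK hA
  have h4 : ∀ i : Fin M, Nat.card (GL {s // d s = i} K) =
      Nat.card {g : GL (Fin #{s | d s = i}) K // g.1ᴴ * g.1 = 1} *
        Nat.card (HermInv (1 : Matrix {s // d s = i} {s // d s = i} K)) := fun i => by
    have e : {s // d s = i} ≃ Fin #{s | d s = i} := Fintype.equivFinOfCardEq (Fintype.card_subtype _)
    have := card_GL_commute_eq_mul hK (A := reindex e e 1) (by simp)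
    rw [card_commute_reindex, card_hermInv_eq (edM_reindex e 1)] at this
    simpa using this
  have h5 : 0 < Nat.card {g : GL n K // Commute g.1 A} := Nat.card_pos_iff.2
    ⟨⟨1, Commute.one_left _⟩, inferInstance⟩
  have h6 := (edM_eq_jm_iff.1 h)
  refine Nat.eq_of_mul_eq_mul_right (Nat.pos_of_mul_pos_left (h3 ▸ h5)) (h3.symm.trans ?_)
  rw [card_units_commute_of_jt h6.1 h6.2, card_units_commute_jm hM, card_hermInv_eq h, h2, ← h1,
    prod_congr rfl fun i _ => h4 i, prod_mul_distrib]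
  ring

end CfsgLib.MatConj
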