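import Cfsg.Agent.Lib.MatConj.Unip

/-!
Counting unipotent conjugacy classes through partitions.
-/

set_option autoImplicit false

namespace CfsgLib.MatConj

open Polynomial Module Matrix

variable {F : Type*} [Field F] {n : Type*} [Fintype n] [DecidableEq n]

theorem orderOf_eq_char_iff_jt (p : ℕ) [Fact p.Prime] [CharP F p] (A : Matrix n n F) :
    orderOf A = p ↔
      IsNilpotent (A - 1) ∧ (∀ e ∈ jt A, e ≤ p) ∧ ¬ ∀ e ∈ jt A, e = 1 := by
  have h1 := sub_one_pow_char_pow (F := F) p A 1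
  rw [pow_one] at h1
  constructor
  · intro h
    have hp : (A - 1) ^ p = 0 := by rw [h1, ← h, pow_orderOf_eq_one, sub_self]
    have hA : IsNilpotent (A - 1) := ⟨p, hp⟩
    refine ⟨hA, (sub_one_pow_eq_zero_iff hA p).1 hp, fun h2 => ?_⟩
    rw [← eq_one_iff_jt hA] at h2
    rw [h2, orderOf_one] at h
    exact (Fact.out : p.Prime).one_lt.ne h
  · rintro ⟨hA, h2, h3⟩
    rw [← eq_one_iff_jt hA] at h3
    rw [← sub_one_pow_eq_zero_iff hA, h1, sub_eq_zero] at h2
    exact orderOf_eq_prime h2 h3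

theorem card_multiset_eq_card_partition (k : ℕ) (Q : Multiset ℕ → Prop) :
    Nat.card {s : Multiset ℕ // (∀ e ∈ s, 0 < e) ∧ s.sum = k ∧ Q s} =
      Nat.card {μ : Nat.Partition k // Q μ.parts} :=
  Nat.card_congr
    { toFun := fun s => ⟨⟨s.1, fun {e} he => s.2.1 e he, s.2.2.1⟩, s.2.2.2⟩
      invFun := fun μ => ⟨μ.1.parts, fun _ he => μ.1.parts_pos he, μ.1.parts_sum, μ.2⟩
      left_inv := fun _ => rfl
      right_inv := fun _ => rfl }

theorem card_partition_le_not_one (k p : ℕ) (hp : 1 ≤ p) :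
    Nat.card {μ : Nat.Partition k // (∀ e ∈ μ.parts, e ≤ p) ∧ ¬ ∀ e ∈ μ.parts, e = 1} =
      (Finset.univ.filter (fun μ : Nat.Partition k => ∀ a ∈ μ.parts, a ≤ p)).card - 1 := by
  classical
  let μ₀ : Nat.Partition k := ⟨Multiset.replicate k 1,
    fun {e} he => by rw [Multiset.eq_of_mem_replicate he]; exact one_pos, by simp⟩
  have h0 : ∀ μ : Nat.Partition k, (∀ e ∈ μ.parts, e = 1) ↔ μ = μ₀ := by
    intro μ
    constructor
    · intro h
      have h1 := Multiset.eq_replicate_of_mem h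
      have h2 := μ.parts_sum
      rw [h1, Multiset.sum_replicate, smul_eq_mul, mul_one] at h2
      rw [h2] at h1
      exact Nat.Partition.ext h1
    · rintro rfl e he
      exact Multiset.eq_of_mem_replicate he
  rw [Nat.card_eq_fintype_card, Fintype.card_subtype, ← Finset.card_erase_of_mem (a := μ₀)]
  · congr 1
    ext μ
    simp only [h0, Finset.mem_filter, Finset.mem_univ, true_and, Finset.mem_erase, and_comm]
  · rw [Finset.mem_filter]
    exact ⟨Finset.mem_univ _, fun a ha => (Multiset.eq_of_mem_replicate ha).trans_le hp⟩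

/-- Unipotent classes in a matrix group in which every Jordan type occurs and is a single class. -/
theorem card_unipotent_classes {G : Type*} [Monoid G] (φ : G →* Matrix n n F)
    (hconj : ∀ g g', IsNilpotent (φ g - 1) → IsConj (φ g) (φ g') → IsConj g g')
    (hex : ∀ s : Multiset ℕ, (∀ e ∈ s, 0 < e) → s.sum = Fintype.card n →
      ∃ g, IsNilpotent (φ g - 1) ∧ jt (φ g) = s) (Q : Multiset ℕ → Prop) :
    Nat.card {C : ConjClasses G // ∃ g, ConjClasses.mk g = C ∧
      IsNilpotent (φ g - 1) ∧ Q (jt (φ g))} =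
      Nat.card {μ : Nat.Partition (Fintype.card n) // Q μ.parts} := by
  rw [card_conjClasses_eq_card_image _ (fun g => jt (φ g)), ← card_multiset_eq_card_partition]
  · refine Nat.card_congr (Equiv.subtypeEquivRight fun s => ⟨?_, ?_⟩)
    · rintro ⟨g, ⟨h1, h2⟩, rfl⟩
      exact ⟨fun e he => jt_pos _ he, jt_sum h1, h2⟩
    · rintro ⟨h1, h2, h3⟩
      obtain ⟨g, h4, rfl⟩ := hex s h1 h2
      exact ⟨g, ⟨h4, h3⟩, rfl⟩
  · intro g g' hg hg'
    exact ⟨fun h => jt_eq_of_isConj (φ.map_isConj h),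
      fun h => hconj g g' hg.1 ((isConj_iff_jt hg.1 hg'.1).2 h)⟩

theorem card_classes_order_char {G : Type*} [Monoid G] (p : ℕ) [Fact p.Prime] [CharP F p]
    {k : ℕ} (φ : G →* Matrix (Fin k) (Fin k) F) (hφ : Function.Injective φ)
    (hconj : ∀ g g', IsNilpotent (φ g - 1) → IsConj (φ g) (φ g') → IsConj g g')
    (hex : ∀ s : Multiset ℕ, (∀ e ∈ s, 0 < e) → s.sum = k →
      ∃ g, IsNilpotent (φ g - 1) ∧ jt (φ g) = s) :
    Nat.card {C : ConjClasses G // ∃ g, ConjClasses.mk g = C ∧ orderOf g = p} =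
      (Finset.univ.filter (fun μ : Nat.Partition k => ∀ a ∈ μ.parts, a ≤ p)).card - 1 := by
  have h := card_unipotent_classes φ hconj (by simpa using hex)
    fun s => (∀ e ∈ s, e ≤ p) ∧ ¬ ∀ e ∈ s, e = 1
  rw [Fintype.card_fin] at h
  rw [← card_partition_le_not_one k p (Fact.out : p.Prime).one_le, ← h]
  refine Nat.card_congr (Equiv.subtypeEquivRight fun C => exists_congr fun g => ?_)
  rw [← orderOf_eq_char_iff_jt, orderOf_injective φ hφ]

end CfsgLib.MatConj
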