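import Cfsg.Agent.Lib.MatConj.WallOrth
import Cfsg.Agent.Lib.MatConj.UnipCount

/-!
Unipotent classes of symplectic groups in odd characteristic.
-/

set_option autoImplicit false

namespace CfsgLib.MatConj

open Polynomial Matrix Finset

theorem natCard_eq_sum {α β : Type*} [Finite α] (T : Finset β) (R : α → β → Prop)
    (hR : ∀ a, ∃ b ∈ T, R a b) (hu : ∀ a b b', R a b → R a b' → b = b') :
    Nat.card α = ∑ b ∈ T, Nat.card {a // R a b} := by
  rw [← sum_coe_sort, ← Nat.card_sigma]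
  refine (Nat.card_congr (Equiv.ofBijective (fun x : Σ b : T, {a // R a b} => x.2.1) ⟨?_, fun a => ?_⟩)).symm
  · rintro ⟨⟨b, hb⟩, a, h⟩ ⟨⟨b', hb'⟩, a', h'⟩ rfl
    obtain rfl := hu _ _ _ h h'
    rfl
  · obtain ⟨b, hb, h⟩ := hR a
    exact ⟨⟨⟨b, hb⟩, a, h⟩, rfl⟩

variable {F : Type*} [Field F] {n : Type*} [Fintype n] [DecidableEq n]
  {T : Type*} [Fintype T] [DecidableEq T]

theorem exists_inv_of_unipotent {A : Matrix n n F} (hA : IsNilpotent (A - 1)) :
    ∃ G : Matrix n n F, Aᵀ * G * A = G ∧ G.det ≠ 0 := by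
  have h1 := ((isUnit_iff_isUnit_det _).1 (isUnit_of_isNilpotent_sub_one hA))
  have h2 : A⁻¹ᵀ * Aᵀ = 1 := by rw [← transpose_mul, mul_nonsing_inv _ h1, transpose_one]
  obtain ⟨P, h3, h4⟩ := isConj_iff_exists_unit.1 (isConj_iff_edM.2 (show edM A = edM A⁻¹ᵀ by
    rw [edM_inv h2, edM_transpose, edM_eq_map_jt hA, Multiset.map_map]
    exact Multiset.map_congr rfl fun _ _ => Prod.ext (tilde_X_sub_one).symm rfl))
  exact ⟨P, by rw [mul_assoc, h4, ← mul_assoc, mul_eq_one_comm.1 h2, one_mul], h3.ne_zero⟩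

theorem exists_jform_eq (h2 : (2 : F) ≠ 0) (d : T → ℕ) (r : ℕ)
    {H : ∀ i, Matrix {s // d s = i} {s // d s = i} F} (hH : ∀ i, (H i)ᵀ = (-1 : F) ^ (i + r) • H i)
    (h0 : ∀ i, (H i).det ≠ 0) : ∃ G, (jm d F)ᵀ * G * jm d F = G ∧ Gᵀ = (-1 : F) ^ r • G ∧ G.det ≠ 0 ∧
      ∀ i, jform d G i = H i := by
  obtain ⟨R, h3, h4⟩ := exists_inv_of_unipotent (jt_jm (F := F) d).1
  have h5 := commute_jlift fun i => (jform d R i)⁻¹ * H i
  have h6 := fun i => jform_mul h3 h5 i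
  simp only [jrho_jlift, mul_inv_mul_cancel (det_jform_ne_zero h3 h4 _)] at h6
  generalize jlift (F := F) (d := d) _ = x at h5 h6
  have h7 : (jm d F)ᵀ * (R * x) * jm d F = R * x := by
    rw [mul_assoc, mul_assoc, h5.eq, ← mul_assoc, ← mul_assoc, h3]
  generalize R * x = G at h6 h7
  have h8 : (jm d F)ᵀ * ((2 : F)⁻¹ • (G + (-1 : F) ^ r • Gᵀ)) * jm d F =
      (2 : F)⁻¹ • (G + (-1 : F) ^ r • Gᵀ) := by
    simp [mul_add, add_mul, h7, inv_jm_transpose h7]
  have h9 : ∀ i, jform d ((2 : F)⁻¹ • (G + (-1 : F) ^ r • Gᵀ)) i = H i := fun i => by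
    change (2 : F)⁻¹ • (jform d G i + (-1 : F) ^ r • jform d Gᵀ i) = _
    rw [jform_transpose h7, h6, hH, smul_smul, smul_smul, ← pow_add, ← pow_add,
      Even.neg_one_pow ⟨i + r, by ring⟩, one_smul, ← two_smul F, inv_smul_smul₀ h2]
  refine ⟨_, h8, ?_, det_ne_zero_of_jform h3 h8 h4 fun i => h9 i ▸ h0 i, h9⟩
  rcases r.even_or_odd with h | h <;> simp [h.neg_one_pow, add_comm]

theorem exists_skew_det_ne_zero (hn : Even (Fintype.card n)) :
    ∃ S : Matrix n n F, Sᵀ = -S ∧ S.det ≠ 0 := by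
  obtain ⟨m, hm⟩ := hn
  have e : Fin m ⊕ Fin m ≃ n := Fintype.equivOfCardEq (by simp [hm])
  exact ⟨reindex e e (J (Fin m) F), by rw [transpose_reindex, J_transpose]; rfl,
    by simpa using (isUnit_det_J _ _).ne_zero⟩

theorem edM_eq_jm_iff {A : Matrix n n F} {d : T → ℕ} : edM A = edM (jm d F) ↔
    IsNilpotent (A - 1) ∧ jt A = univ.val.map fun t => d t + 1 :=
  ⟨fun h => jt_eq_of_edM_eq (by rw [h, edM_jm, Multiset.map_map]; rfl),
    fun h => by rw [edM_eq_map_jt h.1, h.2, edM_jm, Multiset.map_map]; rfl⟩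

variable [Finite F] (h2 : (2 : F) ≠ 0) {Γ : Type*} [Group Γ] {ι : Γ →* Matrix n n F}
  {G : Matrix n n F} (hΓ : IsoGrp ι G 1)
include h2 hΓ

theorem IsoGrp.card_unipotent {s : Multiset ℕ} (hs : ∀ e ∈ s, 0 < e) (hn : s.sum = Fintype.card n)
    (he : ∀ j, Odd j → Even (s.count j)) :
    Nat.card {C : ConjClasses Γ // ∃ g, ConjClasses.mk g = C ∧ IsNilpotent (ι g - 1) ∧ jt (ι g) = s} =
      2 ^ #(s.toFinset.filter Even) := by
  classical
  have := Finite.of_injective _ hΓ.inj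
  obtain ⟨t, d, rfl⟩ := exists_map_succ_eq hs
  set E := (univ.val.map fun k => d k + 1).toFinset.filter Even with hE
  have hE' : ∀ i, i + 1 ∈ E ↔ Even (i + 1) ∧ Nonempty {s // d s = i} := fun i => by
    simp [hE, and_comm]
  let σ : Matrix (JI d) (JI d) F → Finset ℕ := fun H => E.filter fun j => ¬ IsSquare (jform d H (j - 1)).det
  have key : ∀ {g g' H H'}, Transp (ι g) G (jm d F) H → Transp (ι g') G (jm d F) H' →
      (IsConj g g' ↔ σ H = σ H') := fun {g g' H H'} h h' => by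
    have h3 := det_jform_ne_zero (h.inv (hΓ.mem g)) (h.det_ne_zero hΓ.det)
    have h4 := det_jform_ne_zero (h'.inv (hΓ.mem g')) (h'.det_ne_zero hΓ.det)
    refine (hΓ.cong_iff h h').symm.trans ⟨fun h5 => filter_congr fun j _ => not_congr
      ((isSquare_mul_iff (h3 _) (h4 _)).1 (isSquare_of_cong_jm (h.inv (hΓ.mem g)) h5 _)),
      fun h5 => cong_jm h2 (h.inv (hΓ.mem g)) (h'.inv (hΓ.mem g')) (h.transpose hΓ.sym)
        (h'.transpose hΓ.sym) (h.det_ne_zero hΓ.det) (h'.det_ne_zero hΓ.det) fun i hi => ?_⟩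
    rcases isEmpty_or_nonempty {s // d s = i} with h6 | h6
    · simp
    · simpa [σ, (hE' i).2 ⟨hi, h6⟩, isSquare_mul_iff (h3 _) (h4 _), not_iff_not] using
        Finset.ext_iff.1 h5 (i + 1)
  refine le_antisymm ?_ ?_
  · have h3 : ∀ C : {C : ConjClasses Γ // ∃ g, ConjClasses.mk g = C ∧ IsNilpotent (ι g - 1) ∧
        jt (ι g) = univ.val.map fun k => d k + 1}, ∃ g H, ConjClasses.mk g = C.1 ∧
        Transp (ι g) G (jm d F) H := fun ⟨C, g, h3, h4⟩ =>
      ⟨g, (exists_transp (edM_eq_jm_iff.2 h4) G).imp fun H hH => ⟨h3, hH⟩⟩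
    choose g H h3 h4 using h3
    exact natCard_le_two_pow E (fun C => σ (H C)) (fun C C' h => Subtype.ext (by
      rwa [← h3, ← h3, ConjClasses.mk_eq_mk_iff_isConj, key (h4 C) (h4 C')]))
      fun _ => filter_subset _ _
  · obtain ⟨ν, hν⟩ := Orth.exists_not_isSquare h2
    have h3 : ∀ N : E.powerset, ∃ g H, Transp (ι g) G (jm d F) H ∧ σ H = N := fun ⟨N, hN⟩ => by
      have h3 : ∀ i, ∃ M : Matrix {s // d s = i} {s // d s = i} F, Mᵀ = (-1 : F) ^ (i + 1) • M ∧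
          M.det ≠ 0 ∧ (i + 1 ∈ E → (¬ IsSquare M.det ↔ i + 1 ∈ N)) := fun i => by
        by_cases h : i + 1 ∈ E
        · obtain ⟨h3, ⟨t⟩⟩ := (hE' i).1 h
          refine ⟨diagonal (Function.update 1 t (if i + 1 ∈ N then ν else 1)), by
            simp [h3.neg_one_pow], ?_⟩
          rw [det_diagonal, prod_update_of_mem (mem_univ _)]
          split_ifs with h4 <;> simp [h4, hν, show ν ≠ 0 from fun h => hν (by simp [h])]
        rcases Nat.even_or_odd (i + 1) with h4 | h4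
        · exact ⟨1, by simp [h4.neg_one_pow], by simp, fun h' => absurd h' h⟩
        · obtain ⟨S, h5, h6⟩ := exists_skew_det_ne_zero (F := F) (n := {s // d s = i}) (by
            simpa only [count_map_univ, Fintype.card_subtype, Nat.add_right_cancel_iff] using he _ h4)
          exact ⟨S, by simp [h4.neg_one_pow, h5], h6, fun h' => absurd h' h⟩
      choose M h3 h4 h5 using h3
      obtain ⟨H, h6, h7, h8, h9⟩ := exists_jform_eq h2 d 1 h3 h4
      obtain ⟨A, h10, h11⟩ := exists_transp_of_sign h2 hΓ.sym h7 hΓ.det h8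
        (by rw [← hn, ← (jt_jm (F := F) d).2, jt_sum (jt_jm d).1]) (by simp) h6
      obtain ⟨g, rfl⟩ := hΓ.sur A h10
      refine ⟨g, H, h11, Finset.ext fun j => ?_⟩
      rcases j with _ | j
      · simpa [σ, hE] using fun h => by simpa [hE] using mem_powerset.1 hN h
      · simpa [σ, h9] using ⟨fun h => (h5 j h.1).1 h.2, fun h =>
          ⟨mem_powerset.1 hN h, (h5 j (mem_powerset.1 hN h)).2 h⟩⟩
    choose g H h3 h4 using h3
    rw [← card_powerset, ← Nat.card_eq_finsetCard]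
    exact Nat.card_le_card_of_injective (fun N => ⟨_, g N, rfl, edM_eq_jm_iff.1 (h3 N).edM_eq⟩)
      fun N N' h => Subtype.ext (by rw [← h4, ← h4, ← key (h3 N) (h3 N'),
        ← ConjClasses.mk_eq_mk_iff_isConj, Subtype.mk.inj h])

omit [Finite F] in
theorem IsoGrp.even_count {g : Γ} (hg : IsNilpotent (ι g - 1)) {j : ℕ} (hj : Odd j) :
    Even ((jt (ι g)).count j) := by
  obtain ⟨t, d, h⟩ := exists_map_succ_eq fun e => jt_pos (ι g) (e := e)
  obtain ⟨H, hH⟩ := exists_transp (edM_eq_jm_iff.2 ⟨hg, h⟩) G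
  obtain ⟨j, rfl⟩ := Nat.exists_eq_add_one_of_ne_zero hj.pos.ne'
  simpa only [h, count_map_univ, Nat.add_right_cancel_iff] using even_card_of_jform h2 (hH.inv (hΓ.mem g)) (hH.transpose hΓ.sym)
    (hH.det_ne_zero hΓ.det) hj

end CfsgLib.MatConj
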